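import Mathlib

/-!
Centralisers of transitive permutation groups.
-/

namespace CfsgLib.PermCentralizer

open MulAction

variable {α : Type*}

theorem eq_one_of_fix {H : Subgroup (Equiv.Perm α)} (hH : ∀ a b : α, ∃ h ∈ H, h a = b)
    {c : Equiv.Perm α} (hc : c ∈ Subgroup.centralizer (H : Set (Equiv.Perm α))) {a : α}
    (ha : c a = a) : c = 1 := by
  refine Equiv.ext fun b => ?_
  obtain ⟨h, hh, rfl⟩ := hH a b
  have := Equiv.ext_iff.mp (Subgroup.mem_centralizer_iff.mp hc h hh) a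
  simp only [Equiv.Perm.mul_apply] at this
  rw [← this, ha]
  rfl

theorem eq_centralizer {H K : Subgroup (Equiv.Perm α)} [Nonempty α]
    (hH : ∀ a b : α, ∃ h ∈ H, h a = b) (hK : ∀ a b : α, ∃ h ∈ K, h a = b)
    (hKH : K ≤ Subgroup.centralizer (H : Set (Equiv.Perm α))) :
    Subgroup.centralizer (H : Set (Equiv.Perm α)) = K := by
  refine le_antisymm (fun c hc => ?_) hKH
  obtain ⟨a⟩ := ‹Nonempty α›
  obtain ⟨k, hk, hka⟩ := hK a (c a)
  have h1 : k⁻¹ * c = 1 := eq_one_of_fix hH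
    ((Subgroup.centralizer (H : Set (Equiv.Perm α))).mul_mem
      ((Subgroup.centralizer (H : Set (Equiv.Perm α))).inv_mem (hKH hk)) hc) (a := a)
    (by rw [Equiv.Perm.mul_apply, ← hka, Equiv.Perm.inv_def, Equiv.symm_apply_apply])
  exact (inv_mul_eq_one.mp h1) ▸ hk

theorem transitive_map {G : Subgroup (Equiv.Perm α)} {M : Subgroup G}
    (hM : IsPretransitive M α) : ∀ a b : α, ∃ h ∈ M.map G.subtype, h a = b := by
  intro a b
  obtain ⟨m, hm⟩ := hM.exists_smul_eq a b
  exact ⟨((m : G) : Equiv.Perm α), ⟨m, m.2, rfl⟩, hm⟩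

theorem le_centralizer_map {G : Subgroup (Equiv.Perm α)} {M N : Subgroup G}
    (h : ∀ x ∈ M, ∀ y ∈ N, x * y = y * x) :
    N.map G.subtype ≤ Subgroup.centralizer ((M.map G.subtype : Subgroup (Equiv.Perm α)) : Set (Equiv.Perm α)) := by
  rintro _ ⟨y, hy, rfl⟩
  rw [Subgroup.mem_centralizer_iff]
  rintro _ ⟨x, hx, rfl⟩
  rw [← map_mul, ← map_mul, h x hx y hy]

/-- Distinct minimal normal subgroups commute elementwise. -/
theorem commute_of_minimal {G : Type*} [Group G] {M N : Subgroup G} (hM : M.Normal) (hN : N.Normal)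
    (hMmin : ∀ L : Subgroup G, L.Normal → L ≤ M → L = ⊥ ∨ L = M)
    (hNmin : ∀ L : Subgroup G, L.Normal → L ≤ N → L = ⊥ ∨ L = N) (hne : M ≠ N) :
    ∀ x ∈ M, ∀ y ∈ N, x * y = y * x := by
  intro x hx y hy
  refine Subgroup.commute_of_normal_of_disjoint M N hM hN ?_ x y hx hy
  rw [disjoint_iff]
  haveI := hM
  haveI := hN
  rcases hMmin (M ⊓ N) inferInstance inf_le_left with h | h
  · exact h
  · rcases hNmin (M ⊓ N) inferInstance inf_le_right with h' | h'
    · exact h'
    · exact absurd (h.symm.trans h') hne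

end CfsgLib.PermCentralizer
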